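import Mathlib
import Cfsg.Prelude.Def_KGroupFacts
import Cfsg.Agent.Lib.Helper35.SchurLocal
import Cfsg.Agent.Lib.Helper35.MetaLocal

set_option autoImplicit false

/-! # Upper bound for the kernel of a stem extension: dihedral Sylow `2`-subgroup of order `8`
and elementary abelian Sylow `3`-subgroup of order `9` -/

namespace Cfsg.Agent.Lib.Helper35.AltUpper

open Cfsg.Agent.Lib.Helper35

section

variable {Y G : Type*} [Group Y] [Group G] [Finite Y]

theorem index_dvd_of_dvd_card [Finite G] (K : Subgroup G) (k c : ℕ) (hk : 0 < k)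
    (hG : Nat.card G = k * c) (hK : k ∣ Nat.card K) : K.index ∣ c := by
  obtain ⟨q, hq⟩ := hK
  have h1 := Subgroup.card_mul_index K
  rw [hq, hG, mul_assoc] at h1
  have h2 : q * K.index = c := Nat.eq_of_mul_eq_mul_left hk h1
  exact ⟨q, by rw [← h2, mul_comm]⟩

omit [Finite Y] in
theorem mem_zpowers_pow_of_dvd {w z : Y} {i c : ℕ} (h : z ^ i ∈ Subgroup.zpowers w) (hd : i ∣ c) :
    z ^ c ∈ Subgroup.zpowers w := by
  obtain ⟨q, rfl⟩ := hd
  rw [pow_mul]
  exact Subgroup.pow_mem _ h q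

/-- A finite stem extension of a group of order `72 c` containing a dihedral subgroup of order
`8` and an elementary abelian subgroup of order `9` has kernel of order at most `6`, provided
the arithmetic side conditions hold. -/
theorem card_ker_le_six (τ : Y →* G) (hτ : Cfsg.IsStemExtension τ)
    (a b u v : G) (ha : orderOf a = 4) (hb : b ^ 2 = 1) (hab : b * a * b⁻¹ = a ^ 3)
    (hb' : b ∉ Subgroup.zpowers a) (hu : orderOf u = 3) (hv : v ^ 3 = 1)
    (huv : v * u * v⁻¹ = u) (hv' : v ∉ Subgroup.zpowers u)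
    (c : ℕ) (hc : Nat.card G = 72 * c) (E : ℕ) (hE : ∀ z ∈ τ.ker, z ^ E = 1)
    (h6 : Nat.gcd (Nat.gcd (2 * (9 * c)) (3 * (8 * c))) E = 6) (h3 : (9 * c) % 6 = 3)
    (h4 : (8 * c) % 6 = 4) : Nat.card τ.ker ≤ 6 := by
  have hGfin : Finite G := Finite.of_surjective τ hτ.1
  have hp2 : Fact (Nat.Prime 2) := ⟨Nat.prime_two⟩
  have hp3 : Fact (Nat.Prime 3) := ⟨Nat.prime_three⟩
  have ha4 : a ^ 4 = 1 := by rw [← ha]; exact pow_orderOf_eq_one a
  have hu3 : u ^ 3 = 1 := by rw [← hu]; exact pow_orderOf_eq_one u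
  -- the 2-part
  obtain ⟨w₂, hw₂, hz₂⟩ := Meta.meta_local τ hτ.1 hτ.2.1 a b 4 2 3 0 (by norm_num) (by norm_num)
    (by decide) ha (by
      have : Meta.tt 4 3 0 = 0 := by decide
      rw [this, pow_zero]; exact hb) hab
  have he2 : Meta.ee 4 2 3 0 = 2 := by decide
  rw [he2] at hw₂
  have h8 : 8 ∣ Nat.card (Subgroup.closure ({a, b} : Set G)) := by
    have hP : IsPGroup 2 (Subgroup.closure ({a, b} : Set G)) := by
      apply sd16_isPGroup
      · rw [show 8 = 4 * 2 from rfl, pow_mul, ha4, one_pow]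
      · rw [← pow_two]; exact hb
      · rw [← hab]; group
    have h := pow_succ_dvd_card_of_pgroup (p := 2) (Subgroup.closure ({a, b} : Set G))
      (Subgroup.zpowers a) hP
      (Subgroup.zpowers_le.mpr (Subgroup.subset_closure (by simp))) 2
      (by rw [Nat.card_zpowers, ha]; norm_num) (x := b) (Subgroup.subset_closure (by simp)) hb'
    simpa using h
  have hi2 : (Subgroup.closure ({a, b} : Set G)).index ∣ 9 * c :=
    index_dvd_of_dvd_card _ 8 (9 * c) (by norm_num) (by rw [hc]; ring) h8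
  -- the 3-part
  obtain ⟨w₃, hw₃, hz₃⟩ := Meta.meta_local τ hτ.1 hτ.2.1 u v 3 3 1 0 (by norm_num) (by norm_num)
    (by decide) hu (by
      have : Meta.tt 3 1 0 = 0 := by decide
      rw [this, pow_zero]; exact hv) (by rw [pow_one]; exact huv)
  have he3 : Meta.ee 3 3 1 0 = 3 := by decide
  rw [he3] at hw₃
  have hcomm : u * v = v * u := by
    calc u * v = (v * u * v⁻¹) * v := by rw [huv]
      _ = v * u := by group
  have h9 : 9 ∣ Nat.card (Subgroup.closure ({u, v} : Set G)) := by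
    have hP : IsPGroup 3 (Subgroup.closure ({u, v} : Set G)) := by
      apply isPGroup_closure_of_comm
      · rintro x (rfl | rfl) y (rfl | rfl)
        · rfl
        · exact hcomm
        · exact hcomm.symm
        · rfl
      · rintro x (rfl | rfl)
        · exact hu3
        · exact hv
    have h := pow_succ_dvd_card_of_pgroup (p := 3) (Subgroup.closure ({u, v} : Set G))
      (Subgroup.zpowers u) hP
      (Subgroup.zpowers_le.mpr (Subgroup.subset_closure (by simp))) 1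
      (by rw [Nat.card_zpowers, hu]; norm_num) (x := v) (Subgroup.subset_closure (by simp)) hv'
    simpa using h
  have hi3 : (Subgroup.closure ({u, v} : Set G)).index ∣ 8 * c :=
    index_dvd_of_dvd_card _ 9 (8 * c) (by norm_num) (by rw [hc]; ring) h9
  -- consequences for the elements of the kernel
  have hk2 : ∀ z ∈ τ.ker, z ^ (9 * c) ∈ Subgroup.zpowers w₂ := fun z hz =>
    mem_zpowers_pow_of_dvd (hz₂ z hz (hτ.2.2 hz)) hi2
  have hk3 : ∀ z ∈ τ.ker, z ^ (8 * c) ∈ Subgroup.zpowers w₃ := fun z hz =>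
    mem_zpowers_pow_of_dvd (hz₃ z hz (hτ.2.2 hz)) hi3
  have hpow_of_mem : ∀ (w : Y) (n : ℕ), w ^ n = 1 → ∀ x ∈ Subgroup.zpowers w, x ^ n = 1 := by
    intro w n hw x hx
    obtain ⟨i, rfl⟩ := Subgroup.mem_zpowers_iff.mp hx
    rw [← zpow_natCast, ← zpow_mul, mul_comm, zpow_mul, zpow_natCast, hw, one_zpow]
  have hz6 : ∀ z ∈ τ.ker, z ^ 6 = 1 := by
    intro z hz
    have e1 : z ^ (2 * (9 * c)) = 1 := by
      rw [mul_comm, pow_mul]; exact hpow_of_mem w₂ 2 hw₂ _ (hk2 z hz)
    have e2 : z ^ (3 * (8 * c)) = 1 := by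
      rw [mul_comm, pow_mul]; exact hpow_of_mem w₃ 3 hw₃ _ (hk3 z hz)
    have d1 := orderOf_dvd_of_pow_eq_one e1
    have d2 := orderOf_dvd_of_pow_eq_one e2
    have d3 := orderOf_dvd_of_pow_eq_one (hE z hz)
    have d := Nat.dvd_gcd (Nat.dvd_gcd d1 d2) d3
    rw [h6] at d
    exact orderOf_dvd_iff_pow_eq_one.mp d
  have hred : ∀ z ∈ τ.ker, ∀ n : ℕ, z ^ n = z ^ (n % 6) := by
    intro z hz n
    conv_lhs => rw [← Nat.div_add_mod n 6, pow_add, pow_mul, hz6 z hz, one_pow, one_mul]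
  have hm2 : ∀ z ∈ τ.ker, z ^ 3 ∈ Subgroup.zpowers w₂ := by
    intro z hz
    have := hk2 z hz
    rwa [hred z hz, h3] at this
  have hm3 : ∀ z ∈ τ.ker, z ^ 4 ∈ Subgroup.zpowers w₃ := by
    intro z hz
    have := hk3 z hz
    rwa [hred z hz, h4] at this
  let φ : τ.ker → Subgroup.zpowers w₂ × Subgroup.zpowers w₃ := fun z =>
    (⟨(z : Y) ^ 3, hm2 z z.2⟩, ⟨(z : Y) ^ 4, hm3 z z.2⟩)
  have hφ : Function.Injective φ := by
    intro z z' h
    have e1 : (z : Y) ^ 3 = (z' : Y) ^ 3 := congrArg (fun p => (p.1 : Y)) h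
    have e2 : (z : Y) ^ 4 = (z' : Y) ^ 4 := congrArg (fun p => (p.2 : Y)) h
    have key : ∀ x ∈ τ.ker, x = x ^ 3 * x ^ 4 := by
      intro x hx
      have h7 := hred x hx 7
      rw [show 7 % 6 = 1 from rfl, pow_one] at h7
      rw [← pow_add]; exact h7.symm
    apply Subtype.ext
    rw [key z z.2, key z' z'.2, e1, e2]
  have hw₂fin : 0 < orderOf w₂ := orderOf_pos_iff.mpr (isOfFinOrder_of_finite w₂)
  have hw₃fin : 0 < orderOf w₃ := orderOf_pos_iff.mpr (isOfFinOrder_of_finite w₃)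
  calc Nat.card τ.ker ≤ Nat.card (Subgroup.zpowers w₂ × Subgroup.zpowers w₃) :=
        Nat.card_le_card_of_injective φ hφ
    _ = orderOf w₂ * orderOf w₃ := by rw [Nat.card_prod, Nat.card_zpowers, Nat.card_zpowers]
    _ ≤ 2 * 3 := Nat.mul_le_mul (Nat.le_of_dvd (by norm_num) (orderOf_dvd_of_pow_eq_one hw₂))
        (Nat.le_of_dvd (by norm_num) (orderOf_dvd_of_pow_eq_one hw₃))

end

end Cfsg.Agent.Lib.Helper35.AltUpper
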