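import Mathlib
import Cfsg.Prelude.Def_KGroupFacts
import Cfsg.Agent.Lib.Helper35.Alt.Upper

set_option autoImplicit false

/-! # The kernel of a finite stem extension of `A₆` or `A₇` has order at most `6` -/

namespace Cfsg.Agent.Lib.Helper35.AltBound

open Cfsg.Agent.Lib.Helper35 Equiv

theorem not_mem_zpowers_of_conj {G : Type*} [Group G] {a b : G} (ha : orderOf a = 4)
    (hab : b * a * b⁻¹ = a ^ 3) : b ∉ Subgroup.zpowers a := by
  intro hmem
  obtain ⟨k, rfl⟩ := Subgroup.mem_zpowers_iff.mp hmem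
  have h1 : a ^ k * a * (a ^ k)⁻¹ = a := by
    have : Commute (a ^ k) a := (Commute.refl a).zpow_left k
    rw [this.eq, mul_inv_cancel_right]
  rw [h1] at hab
  have h2 : a ^ 1 = a ^ 3 := by rw [pow_one]; exact hab
  rw [pow_eq_pow_iff_modEq, ha] at h2
  exact absurd h2 (by decide)

/-! ### Degree 6 -/

/-- `(0 1 2 3)(4 5)` -/
def pa6 : Perm (Fin 6) := ⟨![1, 2, 3, 0, 5, 4], ![3, 0, 1, 2, 5, 4], by decide, by decide⟩
/-- `(1 3)(4 5)` -/
def pb6 : Perm (Fin 6) := ⟨![0, 3, 2, 1, 5, 4], ![0, 3, 2, 1, 5, 4], by decide, by decide⟩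
/-- `(0 1 2)` -/
def pu6 : Perm (Fin 6) := ⟨![1, 2, 0, 3, 4, 5], ![2, 0, 1, 3, 4, 5], by decide, by decide⟩
/-- `(3 4 5)` -/
def pv6 : Perm (Fin 6) := ⟨![0, 1, 2, 4, 5, 3], ![0, 1, 2, 5, 3, 4], by decide, by decide⟩
/-- `(0 1 2 3 4)` -/
def pc6 : Perm (Fin 6) := ⟨![1, 2, 3, 4, 0, 5], ![4, 0, 1, 2, 3, 5], by decide, by decide⟩

theorem pa6_mem : pa6 ∈ alternatingGroup (Fin 6) := by
  rw [Perm.mem_alternatingGroup]; decide +kernel
theorem pb6_mem : pb6 ∈ alternatingGroup (Fin 6) := by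
  rw [Perm.mem_alternatingGroup]; decide +kernel
theorem pu6_mem : pu6 ∈ alternatingGroup (Fin 6) := by
  rw [Perm.mem_alternatingGroup]; decide +kernel
theorem pv6_mem : pv6 ∈ alternatingGroup (Fin 6) := by
  rw [Perm.mem_alternatingGroup]; decide +kernel
theorem pc6_mem : pc6 ∈ alternatingGroup (Fin 6) := by
  rw [Perm.mem_alternatingGroup]; decide +kernel

theorem card_ker_le_six_A6 {Y : Type*} [Group Y] [Finite Y] (τ : Y →* alternatingGroup (Fin 6))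
    (hτ : Cfsg.IsStemExtension τ) : Nat.card τ.ker ≤ 6 := by
  have hcard : Nat.card (alternatingGroup (Fin 6)) = 360 := by
    rw [nat_card_alternatingGroup, Nat.card_fin]; decide
  have hp2 : Fact (Nat.Prime 2) := ⟨Nat.prime_two⟩
  have hp3 : Fact (Nat.Prime 3) := ⟨Nat.prime_three⟩
  have hp5 : Fact (Nat.Prime 5) := ⟨by norm_num⟩
  have ha : orderOf (⟨pa6, pa6_mem⟩ : alternatingGroup (Fin 6)) = 4 := by
    rw [Subgroup.orderOf_mk]
    have := orderOf_eq_prime_pow (p := 2) (n := 1) (x := pa6) (by decide +kernel)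
      (by decide +kernel)
    simpa using this
  have hb : (⟨pb6, pb6_mem⟩ : alternatingGroup (Fin 6)) ^ 2 = 1 :=
    Subtype.ext (by show pb6 ^ 2 = 1; decide +kernel)
  have hab : (⟨pb6, pb6_mem⟩ : alternatingGroup (Fin 6)) * ⟨pa6, pa6_mem⟩ * ⟨pb6, pb6_mem⟩⁻¹ =
      ⟨pa6, pa6_mem⟩ ^ 3 :=
    Subtype.ext (by show pb6 * pa6 * pb6⁻¹ = pa6 ^ 3; decide +kernel)
  have hu : orderOf (⟨pu6, pu6_mem⟩ : alternatingGroup (Fin 6)) = 3 := by
    rw [Subgroup.orderOf_mk]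
    exact orderOf_eq_prime (by decide +kernel) (by decide +kernel)
  have hv : (⟨pv6, pv6_mem⟩ : alternatingGroup (Fin 6)) ^ 3 = 1 :=
    Subtype.ext (by show pv6 ^ 3 = 1; decide +kernel)
  have huv : (⟨pv6, pv6_mem⟩ : alternatingGroup (Fin 6)) * ⟨pu6, pu6_mem⟩ * ⟨pv6, pv6_mem⟩⁻¹ =
      ⟨pu6, pu6_mem⟩ :=
    Subtype.ext (by show pv6 * pu6 * pv6⁻¹ = pu6; decide +kernel)
  have hv' : (⟨pv6, pv6_mem⟩ : alternatingGroup (Fin 6)) ∉
      Subgroup.zpowers (⟨pu6, pu6_mem⟩ : alternatingGroup (Fin 6)) := by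
    intro hmem
    obtain ⟨k, hk⟩ := Subgroup.mem_zpowers_iff.mp hmem
    have h1 : (pu6 ^ k) 3 = pv6 3 := by
      have := congrArg (fun g : alternatingGroup (Fin 6) => (g : Perm (Fin 6)) 3) hk
      simpa using this
    rw [Perm.zpow_apply_eq_self_of_apply_eq_self (by decide +kernel : pu6 3 = 3)] at h1
    exact absurd h1 (by decide +kernel)
  have hc : orderOf (⟨pc6, pc6_mem⟩ : alternatingGroup (Fin 6)) = 5 := by
    rw [Subgroup.orderOf_mk]
    exact orderOf_eq_prime (by decide +kernel) (by decide +kernel)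
  have hE : ∀ z ∈ τ.ker, z ^ 72 = 1 := fun z hz =>
    stem_pow_eq_one_of_orderOf τ hτ hz _ 5 72 (by norm_num) hc (by rw [hcard])
  exact AltUpper.card_ker_le_six τ hτ _ _ _ _ ha hb hab (not_mem_zpowers_of_conj ha hab) hu hv huv
    hv' 5 (by rw [hcard]) 72 hE (by decide) (by decide) (by decide)

/-! ### Degree 7 -/

/-- `(0 1 2 3)(4 5)` -/
def pa7 : Perm (Fin 7) := ⟨![1, 2, 3, 0, 5, 4, 6], ![3, 0, 1, 2, 5, 4, 6], by decide, by decide⟩
/-- `(1 3)(4 5)` -/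
def pb7 : Perm (Fin 7) := ⟨![0, 3, 2, 1, 5, 4, 6], ![0, 3, 2, 1, 5, 4, 6], by decide, by decide⟩
/-- `(0 1 2)` -/
def pu7 : Perm (Fin 7) := ⟨![1, 2, 0, 3, 4, 5, 6], ![2, 0, 1, 3, 4, 5, 6], by decide, by decide⟩
/-- `(3 4 5)` -/
def pv7 : Perm (Fin 7) := ⟨![0, 1, 2, 4, 5, 3, 6], ![0, 1, 2, 5, 3, 4, 6], by decide, by decide⟩
/-- `(0 1 2 3 4)` -/
def pc7 : Perm (Fin 7) := ⟨![1, 2, 3, 4, 0, 5, 6], ![4, 0, 1, 2, 3, 5, 6], by decide, by decide⟩
/-- `(0 1 2 3 4 5 6)` -/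
def pe7 : Perm (Fin 7) := ⟨![1, 2, 3, 4, 5, 6, 0], ![6, 0, 1, 2, 3, 4, 5], by decide, by decide⟩

theorem pa7_mem : pa7 ∈ alternatingGroup (Fin 7) := by
  rw [Perm.mem_alternatingGroup]; decide +kernel
theorem pb7_mem : pb7 ∈ alternatingGroup (Fin 7) := by
  rw [Perm.mem_alternatingGroup]; decide +kernel
theorem pu7_mem : pu7 ∈ alternatingGroup (Fin 7) := by
  rw [Perm.mem_alternatingGroup]; decide +kernel
theorem pv7_mem : pv7 ∈ alternatingGroup (Fin 7) := by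
  rw [Perm.mem_alternatingGroup]; decide +kernel
theorem pc7_mem : pc7 ∈ alternatingGroup (Fin 7) := by
  rw [Perm.mem_alternatingGroup]; decide +kernel
theorem pe7_mem : pe7 ∈ alternatingGroup (Fin 7) := by
  rw [Perm.mem_alternatingGroup]; decide +kernel

theorem card_ker_le_six_A7 {Y : Type*} [Group Y] [Finite Y] (τ : Y →* alternatingGroup (Fin 7))
    (hτ : Cfsg.IsStemExtension τ) : Nat.card τ.ker ≤ 6 := by
  have hcard : Nat.card (alternatingGroup (Fin 7)) = 2520 := by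
    rw [nat_card_alternatingGroup, Nat.card_fin]; decide
  have hp2 : Fact (Nat.Prime 2) := ⟨Nat.prime_two⟩
  have hp3 : Fact (Nat.Prime 3) := ⟨Nat.prime_three⟩
  have hp5 : Fact (Nat.Prime 5) := ⟨by norm_num⟩
  have hp7 : Fact (Nat.Prime 7) := ⟨by norm_num⟩
  have ha : orderOf (⟨pa7, pa7_mem⟩ : alternatingGroup (Fin 7)) = 4 := by
    rw [Subgroup.orderOf_mk]
    have := orderOf_eq_prime_pow (p := 2) (n := 1) (x := pa7) (by decide +kernel)
      (by decide +kernel)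
    simpa using this
  have hb : (⟨pb7, pb7_mem⟩ : alternatingGroup (Fin 7)) ^ 2 = 1 :=
    Subtype.ext (by show pb7 ^ 2 = 1; decide +kernel)
  have hab : (⟨pb7, pb7_mem⟩ : alternatingGroup (Fin 7)) * ⟨pa7, pa7_mem⟩ * ⟨pb7, pb7_mem⟩⁻¹ =
      ⟨pa7, pa7_mem⟩ ^ 3 :=
    Subtype.ext (by show pb7 * pa7 * pb7⁻¹ = pa7 ^ 3; decide +kernel)
  have hu : orderOf (⟨pu7, pu7_mem⟩ : alternatingGroup (Fin 7)) = 3 := by
    rw [Subgroup.orderOf_mk]
    exact orderOf_eq_prime (by decide +kernel) (by decide +kernel)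
  have hv : (⟨pv7, pv7_mem⟩ : alternatingGroup (Fin 7)) ^ 3 = 1 :=
    Subtype.ext (by show pv7 ^ 3 = 1; decide +kernel)
  have huv : (⟨pv7, pv7_mem⟩ : alternatingGroup (Fin 7)) * ⟨pu7, pu7_mem⟩ * ⟨pv7, pv7_mem⟩⁻¹ =
      ⟨pu7, pu7_mem⟩ :=
    Subtype.ext (by show pv7 * pu7 * pv7⁻¹ = pu7; decide +kernel)
  have hv' : (⟨pv7, pv7_mem⟩ : alternatingGroup (Fin 7)) ∉
      Subgroup.zpowers (⟨pu7, pu7_mem⟩ : alternatingGroup (Fin 7)) := by
    intro hmem
    obtain ⟨k, hk⟩ := Subgroup.mem_zpowers_iff.mp hmem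
    have h1 : (pu7 ^ k) 3 = pv7 3 := by
      have := congrArg (fun g : alternatingGroup (Fin 7) => (g : Perm (Fin 7)) 3) hk
      simpa using this
    rw [Perm.zpow_apply_eq_self_of_apply_eq_self (by decide +kernel : pu7 3 = 3)] at h1
    exact absurd h1 (by decide +kernel)
  have hc : orderOf (⟨pc7, pc7_mem⟩ : alternatingGroup (Fin 7)) = 5 := by
    rw [Subgroup.orderOf_mk]
    exact orderOf_eq_prime (by decide +kernel) (by decide +kernel)
  have he : orderOf (⟨pe7, pe7_mem⟩ : alternatingGroup (Fin 7)) = 7 := by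
    rw [Subgroup.orderOf_mk]
    exact orderOf_eq_prime (by decide +kernel) (by decide +kernel)
  have hE : ∀ z ∈ τ.ker, z ^ 72 = 1 := by
    intro z hz
    have e1 : z ^ 504 = 1 :=
      stem_pow_eq_one_of_orderOf τ hτ hz _ 5 504 (by norm_num) hc (by rw [hcard])
    have e2 : z ^ 360 = 1 :=
      stem_pow_eq_one_of_orderOf τ hτ hz _ 7 360 (by norm_num) he (by rw [hcard])
    have d := Nat.dvd_gcd (orderOf_dvd_of_pow_eq_one e1) (orderOf_dvd_of_pow_eq_one e2)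
    rw [show Nat.gcd 504 360 = 72 from by decide] at d
    exact orderOf_dvd_iff_pow_eq_one.mp d
  exact AltUpper.card_ker_le_six τ hτ _ _ _ _ ha hb hab (not_mem_zpowers_of_conj ha hab) hu hv huv
    hv' 35 (by rw [hcard]) 72 hE (by decide) (by decide) (by decide)

end Cfsg.Agent.Lib.Helper35.AltBound
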