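import Mathlib
import Cfsg.Prelude.Def_KGroupFacts
import Cfsg.Agent.Lib.Helper35.Schur

set_option autoImplicit false

/-! # A criterion for the Schur multiplier to be cyclic of order `6` -/

namespace Cfsg.Agent.Lib.Helper35.AltFinal

open Cfsg Cfsg.Agent.Lib.Helper35

universe u v w

theorem dvd_card_M {Q : Type u} [Group Q] [Finite Q] {X : Type v} [Group X] (ξ : X →* Q)
    (hs : Function.Surjective ξ) (hc : ξ.ker ≤ Subgroup.center X) {x : X}
    (hx : x ∈ ξ.ker ⊓ commutator X) : orderOf x ∣ Nat.card (M (id : Q → Q)) := by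
  obtain ⟨p, hp⟩ := exists_surj_of_central (hasSchurMultiplier_M (Q := Q)) ξ hs hc
  have hfin : Finite ↥(ξ.ker ⊓ commutator X) := Finite.of_surjective p hp
  have h1 : orderOf (⟨x, hx⟩ : ↥(ξ.ker ⊓ commutator X)) ∣ Nat.card ↥(ξ.ker ⊓ commutator X) :=
    orderOf_dvd_natCard _
  rw [Subgroup.orderOf_mk] at h1
  exact h1.trans (Subgroup.card_dvd_of_surjective p hp)

/-- If every finite stem extension of `Q` has kernel of order at most `6` and `Q` has central
extensions with elements of order `2` and `3` in the kernel and in the commutator subgroup, then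
the Schur multiplier of `Q` is cyclic of order `6`. -/
theorem hasCyclic_six {Q : Type u} [Group Q] [Finite Q]
    (hup : ∀ (Γ : Type u) [Group Γ] [Finite Γ] (σ : Γ →* Q), IsStemExtension σ →
      Nat.card σ.ker ≤ 6)
    (h2 : ∃ (X : Type v) (_ : Group X) (ξ : X →* Q), Function.Surjective ξ ∧
      ξ.ker ≤ Subgroup.center X ∧ ∃ x : X, x ∈ ξ.ker ⊓ commutator X ∧ orderOf x = 2)
    (h3 : ∃ (X : Type w) (_ : Group X) (ξ : X →* Q), Function.Surjective ξ ∧
      ξ.ker ≤ Subgroup.center X ∧ ∃ x : X, x ∈ ξ.ker ⊓ commutator X ∧ orderOf x = 3) :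
    HasCyclicSchurMultiplier Q 6 := by
  have hM := hasSchurMultiplier_M (Q := Q)
  obtain ⟨Γ₀, hG₀, hF₀, σ₀, hσ₀, ⟨e₀⟩⟩ := hM.1
  have hle : Nat.card (M (id : Q → Q)) ≤ 6 := by
    rw [← Nat.card_congr e₀.toEquiv]; exact hup Γ₀ σ₀ hσ₀
  have hd2 : 2 ∣ Nat.card (M (id : Q → Q)) := by
    obtain ⟨X, _, ξ, hs, hc, x, hx, hord⟩ := h2
    rw [← hord]; exact dvd_card_M ξ hs hc hx
  have hd3 : 3 ∣ Nat.card (M (id : Q → Q)) := by
    obtain ⟨X, _, ξ, hs, hc, x, hx, hord⟩ := h3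
    rw [← hord]; exact dvd_card_M ξ hs hc hx
  have hpos : 0 < Nat.card (M (id : Q → Q)) := Nat.card_pos
  have hcard : Nat.card (M (id : Q → Q)) = 6 := by
    have h6 : 6 ∣ Nat.card (M (id : Q → Q)) :=
      Nat.Coprime.mul_dvd_of_dvd_of_dvd (by decide : Nat.Coprime 2 3) hd2 hd3
    exact Nat.le_antisymm hle (Nat.le_of_dvd hpos h6)
  have hcyc : IsCyclic (M (id : Q → Q)) := by
    rw [IsCyclic.iff_exponent_eq_card, hcard]
    have hp2 : Fact (Nat.Prime 2) := ⟨Nat.prime_two⟩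
    have hp3 : Fact (Nat.Prime 3) := ⟨Nat.prime_three⟩
    obtain ⟨g₂, hg₂⟩ := exists_prime_orderOf_dvd_card' (G := M (id : Q → Q)) 2 hd2
    obtain ⟨g₃, hg₃⟩ := exists_prime_orderOf_dvd_card' (G := M (id : Q → Q)) 3 hd3
    have e2 : 2 ∣ Monoid.exponent (M (id : Q → Q)) := by
      rw [← hg₂]; exact Monoid.order_dvd_exponent g₂
    have e3 : 3 ∣ Monoid.exponent (M (id : Q → Q)) := by
      rw [← hg₃]; exact Monoid.order_dvd_exponent g₃
    have e6 : 6 ∣ Monoid.exponent (M (id : Q → Q)) :=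
      Nat.Coprime.mul_dvd_of_dvd_of_dvd (by decide : Nat.Coprime 2 3) e2 e3
    have ed : Monoid.exponent (M (id : Q → Q)) ∣ 6 := by
      rw [← hcard]; exact Group.exponent_dvd_nat_card
    exact Nat.dvd_antisymm ed e6
  have hcard' : Nat.card (M (id : Q → Q)) = Nat.card (Multiplicative (ZMod 6)) := by
    rw [hcard, Nat.card_eq_fintype_card, Fintype.card_multiplicative, ZMod.card]
  have iso : M (id : Q → Q) ≃* Multiplicative (ZMod 6) := mulEquivOfCyclicCardEq hcard'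
  refine ⟨⟨Γ₀, hG₀, hF₀, σ₀, hσ₀, ⟨e₀.trans iso⟩⟩, ?_⟩
  intro Γ _ _ σ hσ
  obtain ⟨π, hπ⟩ := hM.2 Γ σ hσ
  exact ⟨π.comp iso.symm.toMonoidHom, hπ.comp iso.symm.surjective⟩

end Cfsg.Agent.Lib.Helper35.AltFinal
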